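import Mathlib
import Cfsg.Prelude.Def_GeometricClasses
import Cfsg.Prelude.Def_LieClassical

/-!
# Project U27 (S5999): interface

`PSU_3(p)`, `p ≡ 2 (mod 3)`, and the normalizer of an extraspecial group `3^{1+2}`.
All packages are closed `Prop`s; see the plan notes (topic S5999) for the paper proofs.
-/

set_option autoImplicit false
open scoped MatrixGroups Matrix

namespace Cfsg.Agent.Lib.Helper37.U27

universe u

/-- The ambient group `SU_3(q)` inside `GL_3(q²)`. -/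
abbrev Gp (F : Type u) [Field F] (q : ℕ) : Subgroup (GL (Fin 3) F) :=
  Cfsg.GU 3 F q ⊓ Cfsg.Geo.specialLinear (Fin 3) F

/-- The shift matrix `X : e_i ↦ e_{i+1}`. -/
def Xm (F : Type u) [Field F] : Matrix (Fin 3) (Fin 3) F := !![0, 0, 1; 1, 0, 0; 0, 1, 0]

/-- The clock matrix `Z = diag(1, w, w²)`. -/
def Zm {F : Type u} [Field F] (w : F) : Matrix (Fin 3) (Fin 3) F := Matrix.diagonal ![1, w, w ^ 2]

/-- The involution `W = -(e_1 ↔ e_2)` (determinant 1), inverting `X` and `Z`. -/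
def Wm (F : Type u) [Field F] : Matrix (Fin 3) (Fin 3) F := !![-1, 0, 0; 0, 0, -1; 0, -1, 0]

/-- The standard extraspecial group `⟨X, Z⟩` of order 27. -/
def R0 {F : Type u} [Field F] (w : F) : Subgroup (GL (Fin 3) F) :=
  Subgroup.closure {y : GL (Fin 3) F | (y : Matrix (Fin 3) (Fin 3) F) = Xm F ∨
    (y : Matrix (Fin 3) (Fin 3) F) = Zm w}

/-- Every `x ∈ G` with `x^r` scalar and `x` not scalar is `G`-conjugate into `N`. -/
def AllConj {F : Type u} [Field F] (G N : Subgroup (GL (Fin 3) F)) (r : ℕ) : Prop :=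
  ∀ x ∈ G, (∃ z : F, ((x ^ r : GL (Fin 3) F) : Matrix (Fin 3) (Fin 3) F) =
      z • (1 : Matrix (Fin 3) (Fin 3) F)) →
    (∀ z : F, (x : Matrix (Fin 3) (Fin 3) F) ≠ z • (1 : Matrix (Fin 3) (Fin 3) F)) →
    ∃ g ∈ G, g⁻¹ * x * g ∈ N

/-- An orthonormal triple for the hermitian form. -/
def IsON {F : Type u} [Field F] (q : ℕ) (v : Fin 3 → Fin 3 → F) : Prop :=
  ∀ i j, Cfsg.hermForm 3 F q (v i) (v j) = if i = j then 1 else 0

/-! ## Linear algebra and group theory (no form) -/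

/-- [COMM] a non-abelian group of order 27 and exponent 3 in `GL_3` is generated by `A, B` with
`A B = w B A`, `w` a primitive cube root of unity. -/
def PkgComm : Prop :=
  ∀ (F : Type u) [Field F] (R : Subgroup (GL (Fin 3) F)) (w0 : F), w0 ^ 2 + w0 + 1 = 0 →
    (3 : F) ≠ 0 → Nat.card R = 27 → Monoid.exponent R = 3 → ¬ IsMulCommutative R →
    ∃ A ∈ R, ∃ B ∈ R, ∃ w : F, w ^ 2 + w + 1 = 0 ∧
      (A : Matrix (Fin 3) (Fin 3) F) * (B : Matrix (Fin 3) (Fin 3) F) =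
        w • ((B : Matrix (Fin 3) (Fin 3) F) * (A : Matrix (Fin 3) (Fin 3) F)) ∧
      R = Subgroup.closure {A, B}

/-- [EIGV] a matrix with `A³ = 1` has an eigenvector (the cube roots of unity are in `F`). -/
def PkgEigV : Prop :=
  ∀ (F : Type u) [Field F] (A : Matrix (Fin 3) (Fin 3) F) (w : F), w ^ 2 + w + 1 = 0 → A ^ 3 = 1 →
    ∃ v : Fin 3 → F, v ≠ 0 ∧ ∃ α : F, α ^ 3 = 1 ∧ A *ᵥ v = α • v

/-- [R0DIAG] the diagonal matrices with cube-root-of-unity entries of product 1 lie in `R0 w`. -/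
def PkgR0Diag : Prop :=
  ∀ (F : Type u) [Field F] (w : F) (y : GL (Fin 3) F) (d : Fin 3 → F), w ^ 2 + w + 1 = 0 →
    (3 : F) ≠ 0 → (∀ i, d i ^ 3 = 1) → d 0 * d 1 * d 2 = 1 →
    (y : Matrix (Fin 3) (Fin 3) F) = Matrix.diagonal d → y ∈ R0 w

/-- [R0CENT] a matrix commuting with `X` and `Z` is scalar. -/
def PkgR0Cent : Prop :=
  ∀ (F : Type u) [Field F] (w : F) (M : Matrix (Fin 3) (Fin 3) F), w ^ 2 + w + 1 = 0 → (3 : F) ≠ 0 →
    M * Xm F = Xm F * M → M * Zm w = Zm w * M → ∃ c : F, M = c • (1 : Matrix (Fin 3) (Fin 3) F)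

/-- [NORB] an element normalizing a group `R` of order 27, centralizing a non-trivial element of
`R`, whose `r`-th power (`r ≥ 5` prime) centralizes `R`, centralizes `R`. -/
def PkgNOrb : Prop :=
  ∀ (H : Type u) [Group H] (R : Subgroup H) (y s : H) (r : ℕ), Nat.card R = 27 →
    y ∈ Subgroup.normalizer (R : Set H) → s ∈ R → s ≠ 1 → y * s = s * y → r.Prime → 5 ≤ r →
    (∀ a ∈ R, y ^ r * a = a * y ^ r) → ∀ a ∈ R, y * a = a * y

/-- [NSCAL] if a conjugate of `x` normalizes `R0 w` and `x^r` is scalar (`r ≥ 5` prime) then `x`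
is scalar. -/
def PkgNScal : Prop :=
  ∀ (F : Type u) [Field F] (w : F) (x k : GL (Fin 3) F) (r : ℕ) (z : F), w ^ 2 + w + 1 = 0 →
    (3 : F) ≠ 0 → Nat.card (R0 w) = 27 → r.Prime → 5 ≤ r →
    k⁻¹ * x * k ∈ Cfsg.Geo.subgroupNormalizer (R0 w) →
    ((x ^ r : GL (Fin 3) F) : Matrix (Fin 3) (Fin 3) F) = z • (1 : Matrix (Fin 3) (Fin 3) F) →
    ∃ c : F, (x : Matrix (Fin 3) (Fin 3) F) = c • (1 : Matrix (Fin 3) (Fin 3) F)

/-- [NORMR0] normalizer membership can be checked on the generators. -/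
def PkgNormR0 : Prop :=
  ∀ (F : Type u) [Field F] (w : F) (n : GL (Fin 3) F),
    (∀ y : GL (Fin 3) F, ((y : Matrix (Fin 3) (Fin 3) F) = Xm F ∨
        (y : Matrix (Fin 3) (Fin 3) F) = Zm w) → n * y * n⁻¹ ∈ R0 w ∧ n⁻¹ * y * n ∈ R0 w) →
    n ∈ Cfsg.Geo.subgroupNormalizer (R0 w)

/-- [DNORM] every scalar multiple of a diagonal matrix with cube-root-of-unity entries normalizes
`R0 w`. -/
def PkgDNorm : Prop :=
  ∀ (F : Type u) [Field F] (w : F) (n : GL (Fin 3) F) (c : F) (d : Fin 3 → F), w ^ 2 + w + 1 = 0 →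
    (3 : F) ≠ 0 → (∀ i, d i ^ 3 = 1) →
    (n : Matrix (Fin 3) (Fin 3) F) = c • Matrix.diagonal d → n ∈ Cfsg.Geo.subgroupNormalizer (R0 w)

/-- [WNORM] the scalar multiples of `W` normalize `R0 w`. -/
def PkgWNorm : Prop :=
  ∀ (F : Type u) [Field F] (w : F) (n : GL (Fin 3) F) (c : F), w ^ 2 + w + 1 = 0 → (3 : F) ≠ 0 →
    (n : Matrix (Fin 3) (Fin 3) F) = c • Wm F → n ∈ Cfsg.Geo.subgroupNormalizer (R0 w)

/-- [TRANSPORT] conjugating `R` by a unitary matrix does not change the statement. -/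
def PkgTransport : Prop :=
  ∀ (F : Type u) [Field F] [Fintype F] (q : ℕ) (R R' : Subgroup (GL (Fin 3) F)) (g : GL (Fin 3) F)
    (r : ℕ), g ∈ Cfsg.GU 3 F q → (∀ y, y ∈ R ↔ g⁻¹ * y * g ∈ R') →
    Nat.card R' = Nat.card R ∧
    (AllConj (Gp F q) (Cfsg.Geo.subgroupNormalizer R) r ↔
      AllConj (Gp F q) (Cfsg.Geo.subgroupNormalizer R') r)

/-- [IDX3] a subgroup of order 27 of `N ⊓ G` and `81 ∤ |G|` give `3 ∤ |G : N ⊓ G|`. -/
def PkgIdx3 : Prop :=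
  ∀ (H : Type u) [Group H] (G N R : Subgroup H) [Finite G], R ≤ N → R ≤ G → Nat.card R = 27 →
    ¬ 81 ∣ Nat.card G → ¬ 3 ∣ N.relIndex G

/-! ## Unitary packages -/

/-- [W0] a primitive cube root of unity. -/
def PkgW0 : Prop :=
  ∀ (F : Type u) [Field F] [Fintype F] (q : ℕ), Fintype.card F = q ^ 2 → 3 ∣ q + 1 →
    ∃ w0 : F, w0 ^ 2 + w0 + 1 = 0

/-- [RSUB] `R0 w ≤ SU_3(q)`, hence so is every unitary conjugate. -/
def PkgRSub : Prop :=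
  ∀ (F : Type u) [Field F] [Fintype F] (q : ℕ) (w : F) (g y : GL (Fin 3) F), Fintype.card F = q ^ 2 →
    3 ∣ q + 1 → w ^ 2 + w + 1 = 0 → g ∈ Cfsg.GU 3 F q → g⁻¹ * y * g ∈ R0 w → y ∈ Gp F q

/-- [CARD3] `|SU_3(p)|_3 = 27` for `p ≡ 2, 5 (mod 9)`. -/
def PkgCard3 : Prop :=
  ∀ (F : Type u) [Field F] [Fintype F] (p : ℕ), p.Prime → Fintype.card F = p ^ 2 → p % 3 = 2 →
    p % 9 ≠ 8 → ¬ 81 ∣ Nat.card (Gp F p)

/-- [CAUCHY] a non-scalar element of order `r ≥ 5`. -/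
def PkgCauchy : Prop :=
  ∀ (F : Type u) [Field F] [Fintype F] (q r : ℕ), r.Prime → 5 ≤ r → r ∣ Nat.card (Gp F q) →
    ∃ x ∈ Gp F q, x ^ r = 1 ∧
      ∀ z : F, (x : Matrix (Fin 3) (Fin 3) F) ≠ z • (1 : Matrix (Fin 3) (Fin 3) F)

/-- [COLS] an orthonormal triple is the triple of columns of a unitary matrix. -/
def PkgCols : Prop :=
  ∀ (F : Type u) [Field F] [Fintype F] (q : ℕ) (v : Fin 3 → Fin 3 → F), Fintype.card F = q ^ 2 →
    IsON q v → ∃ g ∈ Cfsg.GU 3 F q, ∀ i, (g : Matrix (Fin 3) (Fin 3) F) *ᵥ Pi.single i 1 = v i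

/-- [ORTHO] the unitary frame: `v, Bv, B²v` rescaled is an orthonormal basis. -/
def PkgOrtho : Prop :=
  ∀ (F : Type u) [Field F] [Fintype F] (q : ℕ) (A B : GL (Fin 3) F) (w α : F) (v : Fin 3 → F),
    Fintype.card F = q ^ 2 → 3 ∣ q + 1 → A ∈ Cfsg.GU 3 F q → B ∈ Cfsg.GU 3 F q →
    w ^ 2 + w + 1 = 0 → (3 : F) ≠ 0 → α ^ 3 = 1 →
    (A : Matrix (Fin 3) (Fin 3) F) * (B : Matrix (Fin 3) (Fin 3) F) =
      w • ((B : Matrix (Fin 3) (Fin 3) F) * (A : Matrix (Fin 3) (Fin 3) F)) →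
    B ^ 3 = 1 → v ≠ 0 → (A : Matrix (Fin 3) (Fin 3) F) *ᵥ v = α • v →
    ∃ g ∈ Cfsg.GU 3 F q,
      ((g⁻¹ * A * g : GL (Fin 3) F) : Matrix (Fin 3) (Fin 3) F) = α • Zm w ∧
      ((g⁻¹ * B * g : GL (Fin 3) F) : Matrix (Fin 3) (Fin 3) F) = Xm F

/-- [FRAME] `R` is a unitary conjugate of the standard group. -/
def PkgFrame : Prop :=
  ∀ (F : Type u) [Field F] [Fintype F] (q : ℕ) (R : Subgroup (GL (Fin 3) F)), Fintype.card F = q ^ 2 →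
    3 ∣ q + 1 → (3 : F) ≠ 0 → R ≤ Cfsg.GU 3 F q → Nat.card R = 27 → Monoid.exponent R = 3 →
    ¬ IsMulCommutative R →
    ∃ g ∈ Cfsg.GU 3 F q, ∃ w : F, w ^ 2 + w + 1 = 0 ∧ ∀ y, y ∈ R ↔ g⁻¹ * y * g ∈ R0 w

/-- [PROJ] the spectral projectors of a matrix with `Y^m = 1`. -/
def PkgProj : Prop :=
  ∀ (F : Type u) [Field F] (Y : Matrix (Fin 3) (Fin 3) F) (m : ℕ) (ζ : F), IsPrimitiveRoot ζ m →
    0 < m → Y ^ m = 1 →
    ∃ P : Fin m → Matrix (Fin 3) (Fin 3) F, (∑ j, P j = 1) ∧ (∀ j, Y * P j = ζ ^ (j : ℕ) • P j) ∧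
      ∀ (W : Submodule F (Fin 3 → F)), (∀ u ∈ W, Y *ᵥ u ∈ W) → ∀ j, ∀ u ∈ W, P j *ᵥ u ∈ W

/-- [NIEV] a non-zero invariant non-degenerate subspace contains an eigenvector of norm 1. -/
def PkgNIEV : Prop :=
  ∀ (F : Type u) [Field F] [Fintype F] (q m : ℕ) (y : GL (Fin 3) F) (W : Submodule F (Fin 3 → F)),
    Fintype.card F = q ^ 2 → 0 < m → m ∣ q + 1 → y ∈ Cfsg.GU 3 F q → y ^ m = 1 →
    (∀ u ∈ W, (y : Matrix (Fin 3) (Fin 3) F) *ᵥ u ∈ W) → W ≠ ⊥ →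
    (∀ u ∈ W, u ≠ 0 → ∃ u' ∈ W, Cfsg.hermForm 3 F q u u' ≠ 0) →
    ∃ v ∈ W, ∃ l : F, l ^ m = 1 ∧ (y : Matrix (Fin 3) (Fin 3) F) *ᵥ v = l • v ∧
      Cfsg.hermForm 3 F q v v = 1

/-- [ONEB] an orthonormal eigenbasis. -/
def PkgONEB : Prop :=
  ∀ (F : Type u) [Field F] [Fintype F] (q m : ℕ) (y : GL (Fin 3) F), Fintype.card F = q ^ 2 →
    0 < m → m ∣ q + 1 → y ∈ Cfsg.GU 3 F q → y ^ m = 1 →
    ∃ (v : Fin 3 → Fin 3 → F) (d : Fin 3 → F), IsON q v ∧ (∀ i, d i ^ m = 1) ∧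
      ∀ i, (y : Matrix (Fin 3) (Fin 3) F) *ᵥ v i = d i • v i

/-- [UDIAG] unitary diagonalization by a matrix of `SU_3(q)`. -/
def PkgUDiag : Prop :=
  ∀ (F : Type u) [Field F] [Fintype F] (q m : ℕ) (y : GL (Fin 3) F), Fintype.card F = q ^ 2 →
    0 < m → m ∣ q + 1 → y ∈ Cfsg.GU 3 F q → y ^ m = 1 →
    ∃ k ∈ Gp F q, ∃ d : Fin 3 → F, (∀ i, d i ^ m = 1) ∧
      ((k⁻¹ * y * k : GL (Fin 3) F) : Matrix (Fin 3) (Fin 3) F) = Matrix.diagonal d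

/-- [INVD] the scalar multiples of the non-scalar diagonal involutions of determinant 1 are
conjugate into the normalizer. -/
def PkgInvD : Prop :=
  ∀ (F : Type u) [Field F] [Fintype F] (q : ℕ) (w : F) (n : GL (Fin 3) F) (c : F) (d : Fin 3 → F),
    Fintype.card F = q ^ 2 → Odd q → 3 ∣ q + 1 → w ^ 2 + w + 1 = 0 → (3 : F) ≠ 0 →
    (∀ i, d i ^ 2 = 1) → d 0 * d 1 * d 2 = 1 → ¬ (d 0 = d 1 ∧ d 1 = d 2) →
    (n : Matrix (Fin 3) (Fin 3) F) = c • Matrix.diagonal d →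
    ∃ k ∈ Gp F q, k⁻¹ * n * k ∈ Cfsg.Geo.subgroupNormalizer (R0 w)

/-- [INV] `r = 2`. -/
def PkgInv : Prop :=
  ∀ (F : Type u) [Field F] [Fintype F] (q : ℕ) (w : F), Fintype.card F = q ^ 2 → Odd q →
    3 ∣ q + 1 → w ^ 2 + w + 1 = 0 → (3 : F) ≠ 0 →
    AllConj (Gp F q) (Cfsg.Geo.subgroupNormalizer (R0 w)) 2

/-- [CUBE] `r = 3`, `9 ∣ q + 1`. -/
def PkgCube : Prop :=
  ∀ (F : Type u) [Field F] [Fintype F] (q : ℕ) (w : F), Fintype.card F = q ^ 2 → 9 ∣ q + 1 →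
    w ^ 2 + w + 1 = 0 → (3 : F) ≠ 0 →
    AllConj (Gp F q) (Cfsg.Geo.subgroupNormalizer (R0 w)) 3

end Cfsg.Agent.Lib.Helper37.U27
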