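import Cfsg.Agent.Lib.Helper37.U27.Defs
import Cfsg.Agent.Lib.Helper45.HermGU

/-!
# U27 [COLS]: an orthonormal triple is the triple of columns of a unitary matrix
-/

set_option autoImplicit false
open scoped MatrixGroups Matrix

namespace Cfsg.Agent.Lib.Helper37.U27

universe u

theorem pkgCols : PkgCols.{u} := by
  intro F _ _ q v hF hON
  classical
  let M : Matrix (Fin 3) (Fin 3) F := Matrix.of (fun a i => v i a)
  have hMv : ∀ u : Fin 3 → F, M *ᵥ u = u 0 • v 0 + u 1 • v 1 + u 2 • v 2 := by
    intro u
    funext a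
    simp [M, Matrix.mulVec, dotProduct, Fin.sum_univ_three]
    ring
  have hiso : Helper45.IsHermIso 3 F q M := by
    intro u u'
    rw [hMv, hMv]
    simp only [Helper45.herm_add_left, Helper45.herm_add_right hF, Helper45.herm_smul_left,
      Helper45.herm_smul_right]
    rw [hON 0 0, hON 0 1, hON 0 2, hON 1 0, hON 1 1, hON 1 2, hON 2 0, hON 2 1, hON 2 2]
    simp [Helper45.herm_def, Fin.sum_univ_three]
    ring
  have hunit := Helper45.isHermIso_isUnit hF hiso
  refine ⟨hunit.unit, ?_, ?_⟩
  · exact hiso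
  · intro i
    show M *ᵥ Pi.single i 1 = v i
    rw [Matrix.mulVec_single_one]
    ext a
    simp [M]

end Cfsg.Agent.Lib.Helper37.U27
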