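import Cfsg.Agent.Lib.Helper37.U27.Defs

/-!
# U27 [R0DIAG]: diagonal matrices with cube-root-of-unity entries of product 1 lie in `R0 w`
-/

set_option autoImplicit false
open scoped MatrixGroups Matrix

namespace Cfsg.Agent.Lib.Helper37.U27

universe u

section
variable {F : Type u} [Field F]

theorem w_cube {w : F} (hw : w ^ 2 + w + 1 = 0) : w ^ 3 = 1 := by
  have : w ^ 3 - 1 = (w - 1) * (w ^ 2 + w + 1) := by ring
  rw [hw, mul_zero] at this
  exact sub_eq_zero.mp this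

theorem w_ne_one {w : F} (hw : w ^ 2 + w + 1 = 0) (h3 : (3 : F) ≠ 0) : w ≠ 1 := by
  rintro rfl
  apply h3
  have : (1 : F) ^ 2 + 1 + 1 = 3 := by norm_num
  rw [← this]; exact hw

theorem cube_root_cases {w : F} (hw : w ^ 2 + w + 1 = 0) {d : F} (hd : d ^ 3 = 1) :
    d = w ^ 0 ∨ d = w ^ 1 ∨ d = w ^ 2 := by
  have h : (d - 1) * (d - w) * (d - w ^ 2) = 0 := by
    linear_combination hd + (-d ^ 2 + w * d - w + 1) * hw
  rcases mul_eq_zero.mp h with h | h
  · rcases mul_eq_zero.mp h with h | h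
    · left; rw [pow_zero]; exact sub_eq_zero.mp h
    · right; left; rw [pow_one]; exact sub_eq_zero.mp h
  · right; right; exact sub_eq_zero.mp h

theorem Zm_eq (w : F) : Zm w = !![1, 0, 0; 0, w, 0; 0, 0, w ^ 2] := by
  ext i j; fin_cases i <;> fin_cases j <;> simp [Zm]

/-- The unit with matrix `Xm F`. -/
def Xu (F : Type u) [Field F] : GL (Fin 3) F :=
  ⟨Xm F, !![0, 1, 0; 0, 0, 1; 1, 0, 0],
    by ext i j; fin_cases i <;> fin_cases j <;> simp [Xm, Matrix.mul_apply, Fin.sum_univ_three],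
    by ext i j; fin_cases i <;> fin_cases j <;> simp [Xm, Matrix.mul_apply, Fin.sum_univ_three]⟩

theorem Xu_val : ((Xu F : GL (Fin 3) F) : Matrix (Fin 3) (Fin 3) F) = Xm F := rfl

/-- The unit with matrix `Zm w`. -/
def Zu {w : F} (hw : w ^ 2 + w + 1 = 0) : GL (Fin 3) F :=
  ⟨Zm w, Matrix.diagonal ![1, w ^ 2, w],
    by
      have h3 := w_cube hw
      have h3' : w ^ 2 * w = 1 := by rw [← h3]; ring
      have h3'' : w * w ^ 2 = 1 := by rw [← h3]; ring
      ext i j; fin_cases i <;> fin_cases j <;>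
        simp [Zm, Matrix.mul_apply, Matrix.diagonal, h3', h3''],
    by
      have h3 := w_cube hw
      have h3' : w ^ 2 * w = 1 := by rw [← h3]; ring
      have h3'' : w * w ^ 2 = 1 := by rw [← h3]; ring
      ext i j; fin_cases i <;> fin_cases j <;>
        simp [Zm, Matrix.mul_apply, Matrix.diagonal, h3', h3'']⟩

theorem Zu_val {w : F} (hw : w ^ 2 + w + 1 = 0) :
    ((Zu hw : GL (Fin 3) F) : Matrix (Fin 3) (Fin 3) F) = Zm w := rfl

/-- The unit with matrix `w • 1`. -/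
def su {w : F} (hw : w ^ 2 + w + 1 = 0) : GL (Fin 3) F :=
  ⟨w • 1, w ^ 2 • 1,
    by
      have h3 := w_cube hw
      rw [Matrix.smul_mul, Matrix.mul_smul, Matrix.one_mul, smul_smul, ← pow_succ', h3, one_smul],
    by
      have h3 := w_cube hw
      rw [Matrix.smul_mul, Matrix.mul_smul, Matrix.one_mul, smul_smul, ← pow_succ, h3, one_smul]⟩

theorem su_val {w : F} (hw : w ^ 2 + w + 1 = 0) :
    ((su hw : GL (Fin 3) F) : Matrix (Fin 3) (Fin 3) F) = w • 1 := rfl

theorem Xu_mem (w : F) : Xu F ∈ R0 w := Subgroup.subset_closure (Or.inl rfl)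

theorem Zu_mem {w : F} (hw : w ^ 2 + w + 1 = 0) : Zu hw ∈ R0 w :=
  Subgroup.subset_closure (Or.inr rfl)

theorem su_mul {w : F} (hw : w ^ 2 + w + 1 = 0) : su hw * (Xu F * Zu hw) = Zu hw * Xu F := by
  apply Units.ext
  have h3 := w_cube hw
  have h3' : w * (w * w) = 1 := by rw [← h3]; ring
  simp only [Units.val_mul, su_val, Xu_val, Zu_val]
  rw [Zm_eq]
  ext i j; fin_cases i <;> fin_cases j <;>
    simp [Xm, Matrix.mul_apply, Fin.sum_univ_three, Matrix.smul_apply, h3', Matrix.one_apply, sq]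

theorem su_mem {w : F} (hw : w ^ 2 + w + 1 = 0) : su hw ∈ R0 w := by
  have h : su hw = Zu hw * Xu F * (Xu F * Zu hw)⁻¹ := eq_mul_inv_of_mul_eq (su_mul hw)
  rw [h]
  exact (R0 w).mul_mem ((R0 w).mul_mem (Zu_mem hw) (Xu_mem w))
    ((R0 w).inv_mem ((R0 w).mul_mem (Xu_mem w) (Zu_mem hw)))

theorem su_pow_mul_val {w : F} (hw : w ^ 2 + w + 1 = 0) (a b : ℕ) :
    ((su hw ^ a * Zu hw ^ b : GL (Fin 3) F) : Matrix (Fin 3) (Fin 3) F) =
      Matrix.diagonal ![w ^ a, w ^ (a + b), w ^ (a + 2 * b)] := by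
  rw [Units.val_mul, Units.val_pow_eq_pow_val, Units.val_pow_eq_pow_val, su_val, Zu_val, Zm,
    Matrix.diagonal_pow, smul_pow, one_pow]
  ext i j; fin_cases i <;> fin_cases j <;>
    simp [Matrix.diagonal_apply, Matrix.smul_apply, pow_add, pow_mul, Matrix.mul_apply,
      Matrix.one_apply]

end

theorem pkgR0Diag : PkgR0Diag.{u} := by
  intro F _ w y d hw h3 hd hprod hy
  have hw3 := w_cube hw
  have key : ∀ e : F, e ^ 3 = 1 → ∃ n : ℕ, e = w ^ n := by
    intro e he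
    rcases cube_root_cases hw he with h | h | h
    exacts [⟨0, h⟩, ⟨1, h⟩, ⟨2, h⟩]
  obtain ⟨a, ha⟩ := key (d 0) (hd 0)
  obtain ⟨b', hb'⟩ := key (d 1) (hd 1)
  have hw0 : w ≠ 0 := by
    rintro rfl
    norm_num at hw3
  have hd2 : d 2 = w ^ (a + 2 * (b' + 2 * a)) := by
    have h1 : d 2 * (w ^ a * w ^ b') = 1 := by rw [← ha, ← hb']; rw [← hprod]; ring
    have h2 : w ^ (a + 2 * (b' + 2 * a)) * (w ^ a * w ^ b') = 1 := by
      rw [← pow_add, ← pow_add]
      have : a + 2 * (b' + 2 * a) + (a + b') = 3 * (2 * a + b') := by ring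
      rw [this, pow_mul, hw3, one_pow]
    have hne : w ^ a * w ^ b' ≠ 0 := mul_ne_zero (pow_ne_zero _ hw0) (pow_ne_zero _ hw0)
    exact mul_right_cancel₀ hne (h1.trans h2.symm)
  have hd1 : d 1 = w ^ (a + (b' + 2 * a)) := by
    rw [hb']
    have : a + (b' + 2 * a) = b' + 3 * a := by ring
    rw [this, pow_add, pow_mul, hw3, one_pow, mul_one]
  have hyE : y = su hw ^ a * Zu hw ^ (b' + 2 * a) := by
    apply Units.ext
    rw [hy, su_pow_mul_val]
    congr 1
    funext i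
    fin_cases i
    · exact ha
    · exact hd1
    · exact hd2
  rw [hyE]
  exact (R0 w).mul_mem ((R0 w).pow_mem (su_mem hw) _) ((R0 w).pow_mem (Zu_mem hw) _)

end Cfsg.Agent.Lib.Helper37.U27
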