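import Cfsg.Agent.Lib.Helper37.U27.Defs
import Cfsg.Agent.Lib.Helper37.U27.R0Diag
import Cfsg.Agent.Lib.Helper45.HermSU
import Cfsg.Agent.Lib.Helper66.U27.Inv
import Cfsg.Agent.Lib.Helper62.U27.RSub
import Cfsg.Agent.Lib.Helper87.U27.WNorm

/-!
# U27 [INVD]: diagonal involutions are conjugate into the normalizer (coordinator's second seat)
-/

set_option autoImplicit false
open scoped MatrixGroups Matrix

namespace Cfsg.Agent.Lib.Helper37.U27

universe u

section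
variable {F : Type u} [Field F]

/-- The unit with matrix `Wm F`. -/
def Wu (F : Type u) [Field F] : GL (Fin 3) F :=
  ⟨Wm F, Wm F, Helper87.U27.wm_mul_wm F, Helper87.U27.wm_mul_wm F⟩

theorem Wu_val : ((Wu F : GL (Fin 3) F) : Matrix (Fin 3) (Fin 3) F) = Wm F := rfl

theorem isHermIso_Wm {q : ℕ} (hq : Odd q) : Helper45.IsHermIso 3 F q (Wm F) := by
  intro a b
  simp only [Cfsg.hermForm, Wm, Matrix.mulVec, dotProduct, Fin.sum_univ_three, Matrix.of_apply,
    Matrix.cons_val', Matrix.cons_val_zero, Matrix.cons_val_one, Matrix.cons_val_two,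
    Matrix.empty_val', Matrix.cons_val_fin_one, Matrix.head_cons, Matrix.tail_cons,
    Matrix.head_fin_const]
  simp [hq.neg_pow]
  ring

theorem det_Wm : (Wm F).det = 1 := by
  simp [Wm, Matrix.det_fin_three]

theorem Xu_mem_Gp (q : ℕ) : Xu F ∈ Gp F q := by
  rw [Helper66.U27.mem_Gp_iff]
  exact ⟨Helper62.U27.isHermIso_Xm F q, Helper62.U27.det_Xm F⟩

theorem sq_cases {d : F} (hd : d ^ 2 = 1) : d = 1 ∨ d = -1 := by
  have h : (d - 1) * (d + 1) = 0 := by linear_combination hd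
  rcases mul_eq_zero.mp h with h | h
  · left; exact sub_eq_zero.mp h
  · right; exact eq_neg_of_add_eq_zero_left h

/-- Every non-scalar diagonal sign pattern of determinant 1 is `X`-conjugate to `diag(1,-1,-1)`. -/
theorem std_pattern (q : ℕ) (h2 : (2 : F) ≠ 0) (d : Fin 3 → F) (hd : ∀ i, d i ^ 2 = 1)
    (hprod : d 0 * d 1 * d 2 = 1) (hns : ¬ (d 0 = d 1 ∧ d 1 = d 2)) :
    ∃ S : GL (Fin 3) F, S ∈ Gp F q ∧
      (S : Matrix (Fin 3) (Fin 3) F) * Matrix.diagonal d =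
        Matrix.diagonal ![1, -1, -1] * (S : Matrix (Fin 3) (Fin 3) F) := by
  have hne : (-1 : F) ≠ 1 := by
    intro h
    apply h2
    have : (2 : F) = 1 - (-1) := by ring
    rw [this, h]; ring
  have hd' : d = ![d 0, d 1, d 2] := by
    funext i; fin_cases i <;> rfl
  rcases sq_cases (hd 0) with h0 | h0 <;> rcases sq_cases (hd 1) with h1 | h1 <;>
    rcases sq_cases (hd 2) with h2' | h2'
  · exact absurd ⟨h0.trans h1.symm, h1.trans h2'.symm⟩ hns
  · rw [h0, h1, h2'] at hprod; exact absurd (by simpa using hprod) hne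
  · rw [h0, h1, h2'] at hprod; exact absurd (by simpa using hprod) hne
  · refine ⟨1, Subgroup.one_mem _, ?_⟩
    rw [hd', h0, h1, h2']
    simp
  · rw [h0, h1, h2'] at hprod; exact absurd (by simpa using hprod) hne
  · refine ⟨Xu F * Xu F, Subgroup.mul_mem _ (Xu_mem_Gp q) (Xu_mem_Gp q), ?_⟩
    rw [hd', h0, h1, h2', Units.val_mul, Xu_val]
    ext i j; fin_cases i <;> fin_cases j <;>
      simp [Xm, Matrix.mul_apply, Matrix.diagonal_apply]
  · refine ⟨Xu F, Xu_mem_Gp q, ?_⟩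
    rw [hd', h0, h1, h2', Xu_val]
    ext i j; fin_cases i <;> fin_cases j <;>
      simp [Xm, Matrix.mul_apply, Matrix.diagonal_apply]
  · rw [h0, h1, h2'] at hprod; exact absurd (by simpa using hprod) hne

end

theorem pkgInvD_of (hU : PkgUDiag.{u}) (hW : PkgWNorm.{u}) : PkgInvD.{u} := by
  intro F _ _ q w n c d hF hq h3q hw h3 hd hprod hns hn
  classical
  have h2 : (2 : F) ≠ 0 := by
    intro h
    obtain ⟨p, k, hp, hchar, hqk⟩ := Helper45.q_prime_pow hF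
    haveI := hchar
    have h2' : ((2 : ℕ) : F) = 0 := by exact_mod_cast h
    rw [CharP.cast_eq_zero_iff F p] at h2'
    have hp2 : p = 2 := (Nat.prime_dvd_prime_iff_eq hp Nat.prime_two).mp h2'
    rw [hqk, hp2] at hq
    rcases Nat.eq_zero_or_pos k with hk | hk
    · subst hk
      have := Helper45.two_le_q hF
      rw [hqk] at this
      simp at this
    · exact (Nat.not_even_iff_odd.mpr hq) (Nat.even_pow.mpr ⟨even_two, by omega⟩)
  -- the involution `Wu`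
  have hWuGU : Wu F ∈ Cfsg.GU 3 F q := isHermIso_Wm hq
  have hWu2 : Wu F ^ 2 = 1 := by
    apply Units.ext
    rw [Units.val_pow_eq_pow_val, Wu_val, sq, Helper87.U27.wm_mul_wm]
    rfl
  have h2dvd : 2 ∣ q + 1 := by
    obtain ⟨t, ht⟩ := hq
    exact ⟨t + 1, by omega⟩
  obtain ⟨k2, hk2, d', hd', hk2d⟩ := hU F q 2 (Wu F) hF (by norm_num) h2dvd hWuGU hWu2
  have hprod' : d' 0 * d' 1 * d' 2 = 1 := by
    have := Helper66.U27.det_conj (Wu F) k2
    rw [hk2d, Wu_val, det_Wm, Matrix.det_diagonal, Fin.prod_univ_three] at this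
    exact this
  have hns' : ¬ (d' 0 = d' 1 ∧ d' 1 = d' 2) := by
    rintro ⟨h01, h12⟩
    have hsc : Matrix.diagonal d' = d' 0 • (1 : Matrix (Fin 3) (Fin 3) F) := by
      ext i j
      fin_cases i <;> fin_cases j <;> simp [← h12, ← h01]
    rw [hsc] at hk2d
    have hWsc := Helper66.U27.scalar_of_conj (Wu F) k2 (d' 0) hk2d
    rw [Wu_val] at hWsc
    have h11 := congrFun (congrFun hWsc 1) 1
    simp [Wm] at h11
    have := hd' 0
    rw [← h11] at this
    norm_num at this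
  obtain ⟨S, hS, hSd⟩ := std_pattern q h2 d hd hprod hns
  obtain ⟨S', hS', hSd'⟩ := std_pattern q h2 d' hd' hprod' hns'
  -- `Wu * k2 = k2 * diag d'`
  have hA3 : (Wu F : Matrix (Fin 3) (Fin 3) F) * (k2 : Matrix (Fin 3) (Fin 3) F) =
      (k2 : Matrix (Fin 3) (Fin 3) F) * Matrix.diagonal d' := by
    rw [← hk2d, Units.val_mul, Units.val_mul, ← Matrix.mul_assoc, ← Matrix.mul_assoc, Units.mul_inv,
      Matrix.one_mul]
  -- k := S⁻¹ * S' * k2⁻¹
  refine ⟨S⁻¹ * S' * k2⁻¹, Subgroup.mul_mem _ (Subgroup.mul_mem _ (Subgroup.inv_mem _ hS) hS')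
    (Subgroup.inv_mem _ hk2), ?_⟩
  apply hW F w _ c hw h3
  -- matrix computation
  have hkey : (n : Matrix (Fin 3) (Fin 3) F) *
      ((S⁻¹ * S' * k2⁻¹ : GL (Fin 3) F) : Matrix (Fin 3) (Fin 3) F) =
      ((S⁻¹ * S' * k2⁻¹ : GL (Fin 3) F) : Matrix (Fin 3) (Fin 3) F) * (c • Wm F) := by
    -- diag d * S⁻¹ = S⁻¹ * P0 ; P0 * S' = S' * diag d' ; diag d' * k2⁻¹ = k2⁻¹ * Wm
    have e1 : Matrix.diagonal d * ((S⁻¹ : GL (Fin 3) F) : Matrix (Fin 3) (Fin 3) F) =
        ((S⁻¹ : GL (Fin 3) F) : Matrix (Fin 3) (Fin 3) F) * Matrix.diagonal ![1, -1, -1] := by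
      have : ((S⁻¹ : GL (Fin 3) F) : Matrix (Fin 3) (Fin 3) F) *
          ((S : Matrix (Fin 3) (Fin 3) F) * Matrix.diagonal d) *
          ((S⁻¹ : GL (Fin 3) F) : Matrix (Fin 3) (Fin 3) F) =
          ((S⁻¹ : GL (Fin 3) F) : Matrix (Fin 3) (Fin 3) F) *
          (Matrix.diagonal ![1, -1, -1] * (S : Matrix (Fin 3) (Fin 3) F)) *
          ((S⁻¹ : GL (Fin 3) F) : Matrix (Fin 3) (Fin 3) F) := by rw [hSd]
      rw [← Matrix.mul_assoc, Units.inv_mul, Matrix.one_mul] at this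
      rw [this, Matrix.mul_assoc, Matrix.mul_assoc, Units.mul_inv, Matrix.mul_one]
    have e3 : Matrix.diagonal d' * ((k2⁻¹ : GL (Fin 3) F) : Matrix (Fin 3) (Fin 3) F) =
        ((k2⁻¹ : GL (Fin 3) F) : Matrix (Fin 3) (Fin 3) F) * Wm F := by
      have : ((k2⁻¹ : GL (Fin 3) F) : Matrix (Fin 3) (Fin 3) F) *
          ((Wu F : Matrix (Fin 3) (Fin 3) F) * (k2 : Matrix (Fin 3) (Fin 3) F)) *
          ((k2⁻¹ : GL (Fin 3) F) : Matrix (Fin 3) (Fin 3) F) =
          ((k2⁻¹ : GL (Fin 3) F) : Matrix (Fin 3) (Fin 3) F) *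
          ((k2 : Matrix (Fin 3) (Fin 3) F) * Matrix.diagonal d') *
          ((k2⁻¹ : GL (Fin 3) F) : Matrix (Fin 3) (Fin 3) F) := by rw [hA3]
      have l : ((k2⁻¹ : GL (Fin 3) F) : Matrix (Fin 3) (Fin 3) F) *
          ((Wu F : Matrix (Fin 3) (Fin 3) F) * (k2 : Matrix (Fin 3) (Fin 3) F)) *
          ((k2⁻¹ : GL (Fin 3) F) : Matrix (Fin 3) (Fin 3) F) =
          ((k2⁻¹ : GL (Fin 3) F) : Matrix (Fin 3) (Fin 3) F) * Wm F := by
        rw [Matrix.mul_assoc, Matrix.mul_assoc, Units.mul_inv, Matrix.mul_one, Wu_val]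
      have r : ((k2⁻¹ : GL (Fin 3) F) : Matrix (Fin 3) (Fin 3) F) *
          ((k2 : Matrix (Fin 3) (Fin 3) F) * Matrix.diagonal d') *
          ((k2⁻¹ : GL (Fin 3) F) : Matrix (Fin 3) (Fin 3) F) =
          Matrix.diagonal d' * ((k2⁻¹ : GL (Fin 3) F) : Matrix (Fin 3) (Fin 3) F) := by
        rw [← Matrix.mul_assoc, Units.inv_mul, Matrix.one_mul]
      exact r.symm.trans (this.symm.trans l)
    rw [hn, Units.val_mul, Units.val_mul, Matrix.smul_mul, Matrix.mul_smul]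
    congr 1
    calc Matrix.diagonal d * (((S⁻¹ : GL (Fin 3) F) : Matrix (Fin 3) (Fin 3) F) *
          (S' : Matrix (Fin 3) (Fin 3) F) * ((k2⁻¹ : GL (Fin 3) F) : Matrix (Fin 3) (Fin 3) F))
        = (Matrix.diagonal d * ((S⁻¹ : GL (Fin 3) F) : Matrix (Fin 3) (Fin 3) F)) *
          (S' : Matrix (Fin 3) (Fin 3) F) * ((k2⁻¹ : GL (Fin 3) F) : Matrix (Fin 3) (Fin 3) F) := by
          simp only [Matrix.mul_assoc]
      _ = ((S⁻¹ : GL (Fin 3) F) : Matrix (Fin 3) (Fin 3) F) *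
          (Matrix.diagonal ![1, -1, -1] * (S' : Matrix (Fin 3) (Fin 3) F)) *
          ((k2⁻¹ : GL (Fin 3) F) : Matrix (Fin 3) (Fin 3) F) := by
          rw [e1]; simp only [Matrix.mul_assoc]
      _ = ((S⁻¹ : GL (Fin 3) F) : Matrix (Fin 3) (Fin 3) F) * (S' : Matrix (Fin 3) (Fin 3) F) *
          (Matrix.diagonal d' * ((k2⁻¹ : GL (Fin 3) F) : Matrix (Fin 3) (Fin 3) F)) := by
          rw [← hSd']; simp only [Matrix.mul_assoc]
      _ = ((S⁻¹ : GL (Fin 3) F) : Matrix (Fin 3) (Fin 3) F) * (S' : Matrix (Fin 3) (Fin 3) F) *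
          ((k2⁻¹ : GL (Fin 3) F) : Matrix (Fin 3) (Fin 3) F) * Wm F := by
          rw [e3]; simp only [Matrix.mul_assoc]
  rw [Units.val_mul, Units.val_mul, Matrix.mul_assoc, hkey, ← Matrix.mul_assoc, Units.inv_mul,
    Matrix.one_mul]

end Cfsg.Agent.Lib.Helper37.U27
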