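import Cfsg.Agent.Lib.Helper37.U27.Defs
import Cfsg.Agent.Lib.Helper45.HermSU
import Cfsg.Agent.Lib.Helper66.U27.Inv

/-!
# U27 [UDIAG]: unitary diagonalization by a matrix of `SU_3(q)` (coordinator's second seat)
-/

set_option autoImplicit false
open scoped MatrixGroups Matrix

namespace Cfsg.Agent.Lib.Helper37.U27

universe u

theorem pkgUDiag_of (hO : PkgONEB.{u}) (hC : PkgCols.{u}) : PkgUDiag.{u} := by
  intro F _ _ q m y hF hm hdvd hy hym
  classical
  obtain ⟨v, d, hON, hd, hev⟩ := hO F q m y hF hm hdvd hy hym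
  obtain ⟨g, hg, hgv⟩ := hC F q v hF hON
  have h1 : (y : Matrix (Fin 3) (Fin 3) F) * (g : Matrix (Fin 3) (Fin 3) F) =
      (g : Matrix (Fin 3) (Fin 3) F) * Matrix.diagonal d := by
    apply Matrix.ext
    intro a i
    have hdi : Matrix.diagonal d *ᵥ Pi.single i (1 : F) = d i • Pi.single i (1 : F) := by
      rw [Matrix.mulVec_single_one]
      ext b
      by_cases hb : b = i
      · subst hb; simp
      · simp [Matrix.diagonal_apply, hb, Pi.single_apply]
    have e1 : ((y : Matrix (Fin 3) (Fin 3) F) * (g : Matrix (Fin 3) (Fin 3) F)) *ᵥ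
        Pi.single i (1 : F) =
        ((g : Matrix (Fin 3) (Fin 3) F) * Matrix.diagonal d) *ᵥ Pi.single i (1 : F) := by
      rw [← Matrix.mulVec_mulVec, hgv i, hev i, ← Matrix.mulVec_mulVec, hdi, Matrix.mulVec_smul,
        hgv i]
    have := congrFun e1 a
    simpa [Matrix.mulVec_single_one] using this
  have hgiso : Helper45.IsHermIso 3 F q (g : Matrix (Fin 3) (Fin 3) F) := hg
  have hδ : (g : Matrix (Fin 3) (Fin 3) F).det ^ (q + 1) = 1 := Helper45.isHermIso_det hF hgiso
  set δ : F := (g : Matrix (Fin 3) (Fin 3) F).det with hδdef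
  have hδ0 : δ ≠ 0 := by
    intro h0
    rw [h0, zero_pow (by omega)] at hδ
    exact zero_ne_one hδ
  have hDiso : Helper45.IsHermIso 3 F q (Matrix.diagonal ![δ⁻¹, 1, 1]) := by
    apply Helper45.isHermIso_diagonal
    intro i
    fin_cases i
    · show (δ⁻¹) ^ (q + 1) = 1
      rw [inv_pow, hδ, inv_one]
    · show (1 : F) ^ (q + 1) = 1
      exact one_pow _
    · show (1 : F) ^ (q + 1) = 1
      exact one_pow _
  let D : GL (Fin 3) F := (Helper45.isHermIso_isUnit hF hDiso).unit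
  have hDval : (D : Matrix (Fin 3) (Fin 3) F) = Matrix.diagonal ![δ⁻¹, 1, 1] := rfl
  have hDmem : D ∈ Cfsg.GU 3 F q := hDiso
  refine ⟨g * D, ?_, d, hd, ?_⟩
  · rw [Helper66.U27.mem_Gp_iff]
    refine ⟨(Cfsg.GU 3 F q).mul_mem hg hDmem, ?_⟩
    rw [Units.val_mul, Matrix.det_mul, hDval, Matrix.det_diagonal, Fin.prod_univ_three]
    show δ * (δ⁻¹ * 1 * 1) = 1
    rw [mul_one, mul_one, mul_inv_cancel₀ hδ0]
  · have h2 : (y : Matrix (Fin 3) (Fin 3) F) * ((g * D : GL (Fin 3) F) : Matrix (Fin 3) (Fin 3) F) =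
        ((g * D : GL (Fin 3) F) : Matrix (Fin 3) (Fin 3) F) * Matrix.diagonal d := by
      rw [Units.val_mul, ← Matrix.mul_assoc, h1, Matrix.mul_assoc, Matrix.mul_assoc, hDval,
        Matrix.diagonal_mul_diagonal, Matrix.diagonal_mul_diagonal]
      congr 2
      funext i
      exact mul_comm _ _
    rw [Units.val_mul, Units.val_mul, Matrix.mul_assoc, h2, ← Matrix.mul_assoc, Units.inv_mul,
      Matrix.one_mul]

end Cfsg.Agent.Lib.Helper37.U27
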