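import Cfsg.Agent.Lib.Helper37.U27.MainOf
import Cfsg.Agent.Lib.Helper37.U27.Cols
import Cfsg.Agent.Lib.Helper37.U27.R0Diag
import Cfsg.Agent.Lib.Helper4.U27.Comm
import Cfsg.Agent.Lib.Helper4.U27.Frame
import Cfsg.Agent.Lib.Helper87.U27.EigV
import Cfsg.Agent.Lib.Helper87.U27.R0Cent
import Cfsg.Agent.Lib.Helper87.U27.WNorm
import Cfsg.Agent.Lib.Helper87.U27.DNorm
import Cfsg.Agent.Lib.Helper87.U27.NScal
import Cfsg.Agent.Lib.Helper62.U27.Proj
import Cfsg.Agent.Lib.Helper62.U27.RSub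
import Cfsg.Agent.Lib.Helper26.U27.Idx3
import Cfsg.Agent.Lib.Helper26.U27.Cauchy
import Cfsg.Agent.Lib.Helper26.U27.W0
import Cfsg.Agent.Lib.Helper26.U27.NormR0
import Cfsg.Agent.Lib.Helper74.U27.NIEV
import Cfsg.Agent.Lib.Helper74.U27.ONEB
import Cfsg.Agent.Lib.Helper63.U27.NOrb
import Cfsg.Agent.Lib.Helper63.U27.Transport
import Cfsg.Agent.Lib.Helper25.U27.Ortho
import Cfsg.Agent.Lib.Helper66.U27.Inv
import Cfsg.Agent.Lib.Helper66.U27.Cube
import Cfsg.Agent.Lib.Helper92.U27.Card3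
import Cfsg.Agent.Lib.Helper37.U27.UDiag
import Cfsg.Agent.Lib.Helper37.U27.InvD

/-!
# Project U27 (S5999): final assembly
-/

set_option autoImplicit false
open scoped MatrixGroups Matrix

namespace Cfsg.Agent.Lib.Helper37.U27

universe u

theorem hNIEV : PkgNIEV.{u} := Helper74.U27.pkgNIEV_of Helper62.U27.pkgProj
theorem hONEB : PkgONEB.{u} := Helper74.U27.pkgONEB_of hNIEV
theorem hUDiag : PkgUDiag.{u} := pkgUDiag_of hONEB pkgCols
theorem hWNorm : PkgWNorm.{u} := Helper87.U27.pkgWNorm_of pkgR0Diag Helper26.U27.pkgNormR0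
theorem hDNorm : PkgDNorm.{u} := Helper87.U27.pkgDNorm_of pkgR0Diag Helper26.U27.pkgNormR0
theorem hNScal : PkgNScal.{u} :=
  Helper87.U27.pkgNScal_of pkgR0Diag Helper87.U27.pkgR0Cent Helper63.U27.pkgNOrb
theorem hInvD : PkgInvD.{u} := pkgInvD_of hUDiag hWNorm
theorem hInv : PkgInv.{u} := Helper66.U27.pkgInv_of hUDiag hInvD
theorem hCube : PkgCube.{u} := Helper66.U27.pkgCube_of hUDiag hDNorm
theorem hOrtho : PkgOrtho.{u} := Helper25.U27.pkgOrtho_of pkgCols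
theorem hFrame : PkgFrame.{u} :=
  Helper4.U27.pkgFrame_of Helper26.U27.pkgW0 Helper4.U27.pkgComm Helper87.U27.pkgEigV hOrtho
    pkgR0Diag

theorem main {F : Type u} [Field F] [Fintype F] {p : ℕ} [Fact p.Prime] [CharP F p]
    (hF : Fintype.card F = p ^ 2) (hp : 5 ≤ p) (hp3 : p % 3 = 2)
    (R : Subgroup (GL (Fin 3) F)) (hRU : R ≤ Cfsg.GU 3 F p) (hR : Nat.card R = 27)
    (hRe : Monoid.exponent R = 3) (hRna : ¬ IsMulCommutative R)
    (r : ℕ) [Fact r.Prime]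
    (hΩ : r ∣ (Cfsg.Geo.subgroupNormalizer R).relIndex
      (Cfsg.GU 3 F p ⊓ Cfsg.Geo.specialLinear (Fin 3) F)) :
    AllConj (Gp F p) (Cfsg.Geo.subgroupNormalizer R) r ↔ (r = 2 ∨ (r = 3 ∧ p % 9 = 8)) :=
  main_of hFrame Helper63.U27.pkgTransport Helper62.U27.pkgRSub Helper26.U27.pkgIdx3
    Helper92.U27.pkgCard3 Helper26.U27.pkgCauchy hNScal hInv hCube hF hp hp3 R hRU hR hRe hRna r hΩ

end Cfsg.Agent.Lib.Helper37.U27
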