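import Cfsg.Agent.Lib.Helper37.U27.Defs

/-!
# Project U27 (S5999): assembly from the packages
-/

set_option autoImplicit false
open scoped MatrixGroups Matrix

namespace Cfsg.Agent.Lib.Helper37.U27

universe u

theorem main_of (hFrame : PkgFrame.{u}) (hTransport : PkgTransport.{u}) (hRSub : PkgRSub.{u})
    (hIdx3 : PkgIdx3.{u}) (hCard3 : PkgCard3.{u}) (hCauchy : PkgCauchy.{u}) (hNScal : PkgNScal.{u})
    (hInv : PkgInv.{u}) (hCube : PkgCube.{u})
    {F : Type u} [Field F] [Fintype F] {p : ℕ} [Fact p.Prime] [CharP F p]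
    (hF : Fintype.card F = p ^ 2) (hp : 5 ≤ p) (hp3 : p % 3 = 2)
    (R : Subgroup (GL (Fin 3) F)) (hRU : R ≤ Cfsg.GU 3 F p) (hR : Nat.card R = 27)
    (hRe : Monoid.exponent R = 3) (hRna : ¬ IsMulCommutative R)
    (r : ℕ) [Fact r.Prime]
    (hΩ : r ∣ (Cfsg.Geo.subgroupNormalizer R).relIndex
      (Cfsg.GU 3 F p ⊓ Cfsg.Geo.specialLinear (Fin 3) F)) :
    AllConj (Gp F p) (Cfsg.Geo.subgroupNormalizer R) r ↔ (r = 2 ∨ (r = 3 ∧ p % 9 = 8)) := by
  have hpp : p.Prime := Fact.out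
  have hrp : r.Prime := Fact.out
  have h3F : (3 : F) ≠ 0 := by
    intro h
    have h' : ((3 : ℕ) : F) = 0 := by exact_mod_cast h
    rw [CharP.cast_eq_zero_iff F p] at h'
    have := Nat.le_of_dvd (by norm_num) h'
    omega
  have h3q : 3 ∣ p + 1 := by omega
  have hodd : Odd p := by
    rcases hpp.eq_two_or_odd' with h | h
    · omega
    · exact h
  obtain ⟨g, hg, w, hw, hRR0⟩ := hFrame F p R hF h3q h3F hRU hR hRe hRna
  obtain ⟨hcard, hiff⟩ := hTransport F p R (R0 w) g r hg hRR0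
  rw [hiff]
  have hR0card : Nat.card (R0 w) = 27 := hcard.trans hR
  have hr3 : r = 2 ∨ r = 3 ∨ 5 ≤ r := by
    have h2 := hrp.two_le
    by_cases h4 : r = 4
    · subst h4; exact absurd hrp (by norm_num)
    · omega
  rcases hr3 with rfl | rfl | hr5
  · exact ⟨fun _ => Or.inl rfl, fun _ => hInv F p w hF hodd h3q hw h3F⟩
  · by_cases h9 : p % 9 = 8
    · exact ⟨fun _ => Or.inr ⟨rfl, h9⟩, fun _ => hCube F p w hF (by omega) hw h3F⟩
    · exfalso
      have hRG : R ≤ Gp F p := fun y hy => hRSub F p w g y hF h3q hw hg ((hRR0 y).1 hy)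
      have hRN : R ≤ Cfsg.Geo.subgroupNormalizer R := Subgroup.le_normalizer
      exact hIdx3 (GL (Fin 3) F) (Gp F p) (Cfsg.Geo.subgroupNormalizer R) R hRN hRG hR
        (hCard3 F p hpp hF hp3 h9) hΩ
  · constructor
    · intro hall
      exfalso
      have hdvd : r ∣ Nat.card (Gp F p) := hΩ.trans (Subgroup.relIndex_dvd_card _ _)
      obtain ⟨x, hx, hxr, hns⟩ := hCauchy F p r hrp hr5 hdvd
      obtain ⟨k, -, hk⟩ := hall x hx ⟨1, by rw [hxr]; simp⟩ hns
      obtain ⟨c, hc⟩ := hNScal F w x k r 1 hw h3F hR0card hrp hr5 hk (by rw [hxr]; simp)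
      exact hns c hc
    · rintro (h | ⟨h, -⟩) <;> omega

end Cfsg.Agent.Lib.Helper37.U27
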